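import Mathlib

/-!
# BRA [C3c] core: Fourier inversion over the `p`-th roots of unity and Frobenius mod `p`
(generic primitive root; Mathlib only).
-/

set_option autoImplicit false

namespace Cfsg.Agent.Lib.Helper53.BRA

open Finset

/-- a rational number which is an algebraic integer is an integer -/
lemma int_of_rat_integral (q : ℚ) (h : IsIntegral ℤ (q : ℂ)) : ∃ z : ℤ, (z : ℚ) = q := by
  have h1 : IsIntegral ℤ q := by
    have h2 : (q : ℂ) = algebraMap ℚ ℂ q := by simp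
    rw [h2] at h
    exact (isIntegral_algebraMap_iff (algebraMap ℚ ℂ).injective).mp h
  obtain ⟨y, hy⟩ := IsIntegrallyClosed.isIntegral_iff.mp h1
  exact ⟨y, by simpa using hy⟩

/-- the power sums `c_l = Σ_{k<p} m_k ζ^{kl}` -/
noncomputable def csum (p : ℕ) (ζ : ℂ) (m : ℕ → ℕ) (l : ℕ) : ℂ :=
  ∑ k ∈ range p, (m k : ℂ) * ζ ^ (k * l)

lemma fourier_sum (p : ℕ) (ζ : ℂ) (hζ : IsPrimitiveRoot ζ p) (m : ℕ → ℕ) (i : ℕ) (hi : i < p) :
    ∑ l ∈ range p, csum p ζ m l * ζ⁻¹ ^ (i * l) = (p : ℂ) * m i := by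
  have hζ0 : ζ ≠ 0 := hζ.ne_zero (by omega)
  have key : ∀ k ∈ range p,
      ∑ l ∈ range p, (ζ ^ k * ζ⁻¹ ^ i) ^ l = if k = i then (p : ℂ) else 0 := by
    intro k hk
    rw [mem_range] at hk
    split_ifs with hki
    · subst hki
      have h1 : ζ ^ k * ζ⁻¹ ^ k = 1 := by rw [← mul_pow, mul_inv_cancel₀ hζ0, one_pow]
      simp only [h1, one_pow, sum_const, card_range, nsmul_eq_mul, mul_one]
    · have hne : ζ ^ k * ζ⁻¹ ^ i ≠ 1 := by
        intro h1
        apply hki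
        have h2 : ζ⁻¹ ^ i * ζ ^ i = 1 := by rw [← mul_pow, inv_mul_cancel₀ hζ0, one_pow]
        have h3 : ζ ^ k = ζ ^ i := by
          calc ζ ^ k = ζ ^ k * (ζ⁻¹ ^ i * ζ ^ i) := by rw [h2, mul_one]
            _ = (ζ ^ k * ζ⁻¹ ^ i) * ζ ^ i := by ring
            _ = ζ ^ i := by rw [h1, one_mul]
        exact hζ.pow_inj hk hi h3
      have hpow : (ζ ^ k * ζ⁻¹ ^ i) ^ p = 1 := by
        rw [mul_pow, ← pow_mul, ← pow_mul, mul_comm k p, mul_comm i p, pow_mul, pow_mul, inv_pow,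
          hζ.pow_eq_one]
        simp
      have h3 := mul_geom_sum (ζ ^ k * ζ⁻¹ ^ i) p
      rw [hpow, sub_self] at h3
      rcases mul_eq_zero.mp h3 with h4 | h4
      · exact absurd (sub_eq_zero.mp h4) hne
      · exact h4
  calc ∑ l ∈ range p, csum p ζ m l * ζ⁻¹ ^ (i * l)
      = ∑ l ∈ range p, ∑ k ∈ range p, (m k : ℂ) * (ζ ^ k * ζ⁻¹ ^ i) ^ l := by
        refine sum_congr rfl fun l _ => ?_
        rw [csum, sum_mul]
        refine sum_congr rfl fun k _ => ?_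
        rw [mul_pow, ← pow_mul, ← pow_mul]; ring
    _ = ∑ k ∈ range p, (m k : ℂ) * ∑ l ∈ range p, (ζ ^ k * ζ⁻¹ ^ i) ^ l := by
        rw [sum_comm]
        refine sum_congr rfl fun k _ => ?_
        rw [mul_sum]
    _ = ∑ k ∈ range p, (m k : ℂ) * (if k = i then (p : ℂ) else 0) := by
        refine sum_congr rfl fun k hk => ?_
        rw [key k hk]
    _ = (p : ℂ) * m i := by
        simp only [mul_ite, mul_zero, Finset.sum_ite_eq', mem_range, hi, if_true]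
        ring

theorem c3c_core (p : ℕ) (hp : p.Prime) (ζ : ℂ) (hζ : IsPrimitiveRoot ζ p) (m : ℕ → ℕ) (D : ℕ)
    (hD : 0 < D)
    (h : ∀ l : ℕ, ¬ p ∣ l →
      IsIntegral ℤ ((∑ i ∈ range p, (m i : ℂ) * ζ ^ (i * l)) / (D : ℂ))) :
    ∀ i < p, ∀ j < p, (D : ℤ) ∣ (m i : ℤ) - (m j : ℤ) := by
  intro i hi j hj
  have : Fact p.Prime := ⟨hp⟩
  have hD0 : (D : ℂ) ≠ 0 := by exact_mod_cast hD.ne'
  have hp0 : (p : ℂ) ≠ 0 := by exact_mod_cast hp.ne_zero
  have hpq : (p : ℚ) ≠ 0 := by exact_mod_cast hp.ne_zero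
  have hDq : (D : ℚ) ≠ 0 := by exact_mod_cast hD.ne'
  have ha_int : ∀ l, IsIntegral ℤ (if p ∣ l then (0 : ℂ) else csum p ζ m l / (D : ℂ)) := by
    intro l
    split_ifs with hl
    · exact isIntegral_zero
    · exact h l hl
  have hξ_int : IsIntegral ℤ ζ⁻¹ := by
    apply IsIntegral.of_pow hp.pos
    rw [inv_pow, hζ.pow_eq_one, inv_one]
    exact isIntegral_one
  -- the ring of algebraic integers
  let R := integralClosure ℤ ℂ
  let A : ℕ → R := fun l => ⟨if p ∣ l then (0 : ℂ) else csum p ζ m l / (D : ℂ), ha_int l⟩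
  let Ξ : R := ⟨ζ⁻¹, hξ_int⟩
  let X : R := ∑ l ∈ range p, A l * (Ξ ^ (i * l) - Ξ ^ (j * l))
  have hXval : (X : ℂ) = (p : ℂ) * ((m i : ℂ) - (m j : ℂ)) / (D : ℂ) := by
    have h1 : (X : ℂ) = ∑ l ∈ range p, (if p ∣ l then (0 : ℂ) else csum p ζ m l / (D : ℂ))
        * (ζ⁻¹ ^ (i * l) - ζ⁻¹ ^ (j * l)) := by
      simp [X, A, Ξ]
    rw [h1]
    have h2 : ∀ l ∈ range p, (if p ∣ l then (0 : ℂ) else csum p ζ m l / (D : ℂ))
          * (ζ⁻¹ ^ (i * l) - ζ⁻¹ ^ (j * l))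
        = (csum p ζ m l * ζ⁻¹ ^ (i * l) - csum p ζ m l * ζ⁻¹ ^ (j * l)) / (D : ℂ) := by
      intro l hl
      rw [mem_range] at hl
      split_ifs with hpl
      · have h0 : l = 0 := Nat.eq_zero_of_dvd_of_lt hpl hl
        subst h0
        simp
      · field_simp
    rw [sum_congr rfl h2, ← sum_div, sum_sub_distrib, fourier_sum p ζ hζ m i hi,
      fourier_sum p ζ hζ m j hj]
    ring
  -- X is a rational integer
  obtain ⟨z, hz⟩ : ∃ z : ℤ, (z : ℂ) = (X : ℂ) := by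
    have hq : (X : ℂ) = (((p : ℚ) * ((m i : ℚ) - (m j : ℚ)) / (D : ℚ) : ℚ) : ℂ) := by
      rw [hXval]; push_cast; ring
    have hXint : IsIntegral ℤ (X : ℂ) := X.2
    rw [hq] at hXint
    obtain ⟨z, hz⟩ := int_of_rat_integral _ hXint
    refine ⟨z, ?_⟩
    rw [hq, ← hz]; push_cast; ring
  -- `p` is not a unit of `R`
  have hnu : (p : R) ∈ nonunits R := by
    intro hu
    obtain ⟨s, hs⟩ := isUnit_iff_exists_inv.mp hu
    have hs' : (p : ℂ) * (s : ℂ) = 1 := by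
      have h1 := congrArg (fun r : R => (r : ℂ)) hs
      simpa using h1
    have hsq : (s : ℂ) = (((p : ℚ)⁻¹ : ℚ) : ℂ) := by
      push_cast
      field_simp
      linear_combination hs'
    have hsint : IsIntegral ℤ (s : ℂ) := s.2
    rw [hsq] at hsint
    obtain ⟨w, hw⟩ := int_of_rat_integral _ hsint
    have h1 : (p : ℤ) * w = 1 := by
      have h2 : (p : ℚ) * (w : ℚ) = 1 := by rw [hw]; field_simp
      exact_mod_cast h2
    have h2 : (p : ℤ) ∣ 1 := Dvd.intro _ h1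
    have h3 : p ∣ 1 := by exact_mod_cast h2
    exact hp.one_lt.ne' (Nat.dvd_one.mp h3)
  let I : Ideal R := Ideal.span {(p : R)}
  have : CharP (R ⧸ I) p := CharP.quotient R p hnu
  have hΞp : Ξ ^ p = 1 := by
    apply Subtype.ext
    simp [Ξ, hζ.pow_eq_one]
  have hXp : X ^ p ∈ I := by
    rw [← Ideal.Quotient.eq_zero_iff_mem, map_pow]
    have hπΞ : (Ideal.Quotient.mk I Ξ) ^ p = 1 := by rw [← map_pow, hΞp, map_one]
    simp only [X, map_sum, map_mul, map_sub, map_pow]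
    rw [sum_pow_char]
    refine sum_eq_zero fun l _ => ?_
    rw [mul_pow, sub_pow_char, ← pow_mul, ← pow_mul, mul_comm (i * l) p, mul_comm (j * l) p,
      pow_mul _ p (i * l), pow_mul _ p (j * l), hπΞ, one_pow, one_pow, sub_self, mul_zero]
  obtain ⟨s, hs⟩ := Ideal.mem_span_singleton'.mp hXp
  have hs' : (s : ℂ) * (p : ℂ) = (z : ℂ) ^ p := by
    have h1 := congrArg (fun r : R => (r : ℂ)) hs
    rw [hz]
    simpa using h1
  have hsq : (s : ℂ) = ((((z : ℚ) ^ p / (p : ℚ)) : ℚ) : ℂ) := by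
    push_cast
    field_simp
    linear_combination hs'
  have hsint : IsIntegral ℤ (s : ℂ) := s.2
  rw [hsq] at hsint
  obtain ⟨w, hw⟩ := int_of_rat_integral _ hsint
  have hzp : (p : ℤ) ∣ z ^ p := by
    refine ⟨w, ?_⟩
    have h1 : (z : ℚ) ^ p = (p : ℚ) * (w : ℚ) := by rw [hw]; field_simp
    exact_mod_cast h1
  obtain ⟨z', hz'⟩ := Int.Prime.dvd_pow' hp hzp
  refine ⟨z', ?_⟩
  have h5 : (p : ℂ) * ((m i : ℂ) - (m j : ℂ)) / (D : ℂ) = (p : ℂ) * (z' : ℂ) := by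
    rw [← hXval, ← hz, hz']; push_cast; ring
  have h7 : ((m i : ℂ) - (m j : ℂ)) = (D : ℂ) * (z' : ℂ) := by
    field_simp at h5
    linear_combination h5
  exact_mod_cast h7

end Cfsg.Agent.Lib.Helper53.BRA
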