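import Mathlib
import Cfsg.Agent.Lib.Helper95.BRA.Defs
import Cfsg.Agent.Lib.Helper53.BRA.C3cCore

/-!
# BRA [C3c]: `D` divides the differences of the eigenvalue multiplicities (S4484 project)
-/

set_option autoImplicit false

namespace Cfsg.Agent.Lib.Helper53.BRA

open Cfsg.Agent.Lib.Helper74.Jordan

theorem pkgC3c : Cfsg.Agent.Lib.Helper95.BRA.PkgC3c := by
  intro p hp m D hD h
  exact c3c_core p hp (rt p) (rt_prim hp.ne_zero) m D hD h

end Cfsg.Agent.Lib.Helper53.BRA
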